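import Mathlib
import Cfsg.Agent.Lib.NSFT.Defs
import Cfsg.Agent.Lib.LieAll.Syl
import Cfsg.Agent.Lib.ChevAut.TwStd

/-! Coprime automorphisms of the groups of Lie type: definitions in the common model of `Lib/LieAll`. -/

set_option autoImplicit false

namespace CfsgLib.NSFT

open Cfsg Subgroup CfsgLib.RGD CfsgLib.Twist CfsgLib.ChevAut CfsgLib.LieAll
open scoped commutatorElement MatrixGroups

variable {ι κ B : Type} [Fintype κ] [DecidableEq κ] {Φ : RootSys ι κ}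
  {F : Type*} [Field F] {G : Type*} [Group G] {S : StSys Φ F G}

/-- the block of the node `i`: `U_b / U_b'` is the subfield `E` via the coefficient at `i`, and the torus of `M`
induces all `d`-th powers -/
structure BT (T : Tw S B) (M : Subgroup G) (i : κ) (E : Subfield F) (d : ℕ) : Prop where
  ker : ∀ y ∈ Ub T M (T.orb i), S.scoef i y = 0 → y ∈ ⁅Ub T M (T.orb i), Ub T M (T.orb i)⁆
  img : ∀ t, t ∈ E ↔ ∃ y ∈ Ub T M (T.orb i), S.scoef i y = t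
  deg : d = 2 ∨ d = 3 ∧ 3 ∣ Nat.card M
  tor : ∀ c ∈ E, c ≠ 0 → ∃ h ∈ S.H ⊓ M, ∀ t, h * S.x (Φ.simple i) t * h⁻¹ = S.x (Φ.simple i) (c ^ d * t)

/-- the four rank one families: `e = |E|`, `u = |U|`, the exponent `d` of `BT`, and `k` with `χ ^ k = 1` for the
elements of the torus centralized by the Weyl group -/
def Rk1 (X : Type*) [Group X] (e u d k : ℕ) : Prop :=
  (∃ (K : Type) (_ : Field K) (_ : Fintype K), Nonempty (X ≃* PSL(2, K)) ∧
    e = Fintype.card K ∧ u = e ∧ d = 2 ∧ k = 2) ∨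
  (∃ (K : Type) (_ : Field K) (_ : Fintype K) (q : ℕ), Fintype.card K = q ^ 2 ∧ Nonempty (X ≃* PSU 3 K q) ∧
    e = q ^ 2 ∧ u = q ^ 3 ∧ d = 3 ∧ k = q + 1) ∨
  (∃ (K : Type) (_ : Field K) (_ : Fintype K) (m : ℕ), 1 ≤ m ∧ Fintype.card K = 2 ^ (2 * m + 1) ∧
    Nonempty (X ≃* Lie.Sz K (2 ^ (m + 1))) ∧ e = Fintype.card K ∧ u = e ^ 2 ∧ d = 2 ∧ k = 2) ∨
  (∃ (K : Type) (_ : Field K) (_ : Fintype K) (m : ℕ), 1 ≤ m ∧ Fintype.card K = 3 ^ (2 * m + 1) ∧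
    Nonempty (X ≃* Lie.twistedG2 K (3 ^ m)) ∧ e = Fintype.card K ∧ u = e ^ 3 ∧ d = 2 ∧ k = 2)

/-- the data of a model of rank one -/
def Rk1M (T : Tw S B) (M : Subgroup G) : Prop :=
  ∃ (i : κ) (E : Subfield F) (d k : ℕ), BT T M i E d ∧ Rk1 M (Nat.card E) (Nat.card ↥(S.U ⊓ M)) d k ∧
    ∀ h ∈ S.H ⊓ M, ∀ n ∈ S.N ⊓ M, n ∉ S.H → Commute h n →
      ∀ c, (∀ t, h * S.x (Φ.simple i) t * h⁻¹ = S.x (Φ.simple i) (c * t)) → c ^ k = 1

/-- the standard position of an automorphism of prime order `p` prime to `|M|` -/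
structure Pos (p : ℕ) (T : Tw S B) (M : Subgroup G) (φ : MulAut M) : Prop where
  good : LieAll.Good T M
  bt : ∀ b, ∃ i E d, T.orb i = b ∧ BT T M i E d
  prime : p.Prime
  odd : p ≠ 2
  cop : ¬ p ∣ Nat.card M
  pow : φ ^ p = 1
  ne : φ ≠ 1
  perms : Perms T φ id

end CfsgLib.NSFT
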